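import Cfsg.Agent.Lib.Helper60.SUSmall.AdjK

set_option autoImplicit false

namespace Cfsg.Agent.Lib.Helper60.SUSmall

open Cfsg Cfsg.Geo Matrix Cfsg.Agent.Lib.Helper5.SUAsch Cfsg.Agent.Lib.Helper9.AschU
open scoped MatrixGroups

variable {F : Type*} [Field F] [Fintype F]

/-- E6cL -/
theorem e6c_lambda (hF : Fintype.card F = 2 ^ 2) (ω : F) (hω : ω ^ 2 + ω + 1 = 0)
    (K : Subalgebra F (Matrix (Fin 6) (Fin 6) F)) (hK : IsFieldSubalgebra 3 K)
    (hadj : IsAdjointClosedFor (hermForm 6 F 2) K) :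
    ∃ l : GL (Fin 6) F, l ∈ GU 6 F 2 ∧ (l : Matrix (Fin 6) (Fin 6) F) ∈ K ∧
      (l : Matrix (Fin 6) (Fin 6) F) ^ 3 = ω • (1 : Matrix (Fin 6) (Fin 6) F) ∧
      ∀ g ∈ subalgebraNormalizer K, ∃ c : F, c ^ 3 = 1 ∧
        (g : Matrix (Fin 6) (Fin 6) F) * (l : Matrix (Fin 6) (Fin 6) F) =
          c • ((l : Matrix (Fin 6) (Fin 6) F) * (g : Matrix (Fin 6) (Fin 6) F)) := by
  have hω3 := omega_cube hω
  have hyK : ω • (1 : Matrix (Fin 6) (Fin 6) F) ∈ K := K.smul_mem K.one_mem ω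
  have hN : Fintype.card F ^ 3 - 1 = 63 := by rw [hF]; norm_num
  obtain ⟨lam, hlK, hl3⟩ := K_exists_root hK 3 (by rw [hN]; norm_num) hyK (by
    rw [hN]
    have : (63 : ℕ) / 3 = 3 * 7 := by norm_num
    rw [this, smul_pow, one_pow, pow_mul, hω3, one_pow, one_smul])
  set lam' := adj 2 lam with hlam'
  have hl'K : lam' ∈ K := adj_mem hF hadj hlK
  have hl'3 : lam' ^ 3 = ω ^ 2 • (1 : Matrix (Fin 6) (Fin 6) F) := by
    rw [hlam', ← adj_pow hF, hl3, adj_smul, adj_one hF]
  have hcomm : Commute lam' lam := hK.comm _ hl'K _ hlK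
  have hnuK : lam' * lam ∈ K := K.mul_mem hl'K hlK
  have hnu3 : (lam' * lam) ^ 3 = 1 := by
    rw [hcomm.mul_pow, hl'3, hl3, smul_mul_smul_comm, mul_one, ← pow_succ, hω3, one_smul]
  obtain ⟨c, hc3, hc⟩ := cube_root_scalar hK hω hnuK hnu3
  have hself : adj 2 (lam' * lam) = lam' * lam := by
    rw [adj_mul hF, hlam', adj_adj hF]
  have hc1 : c = 1 := by
    rw [hc, adj_smul, adj_one hF] at hself
    have h1 := congrFun (congrFun hself 0) 0
    simp only [Matrix.smul_apply, Matrix.one_apply_eq, smul_eq_mul, mul_one] at h1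
    have hc0 : c ≠ 0 := by
      intro h; rw [h] at hc3; norm_num at hc3
    have h2 : c * (c - 1) = 0 := by linear_combination h1
    rcases mul_eq_zero.mp h2 with h | h
    · exact absurd h hc0
    · linear_combination h
  have hone : lam' * lam = 1 := by rw [hc, hc1, one_smul]
  have hone' : lam * lam' = 1 := by rw [← hcomm.eq]; exact hone
  refine ⟨⟨lam, lam', hone', hone⟩, ?_, hlK, hl3, ?_⟩
  · rw [mem_GU_iff_adj hF]
    exact hone
  · intro g hg
    have hmuK : (g : Matrix (Fin 6) (Fin 6) F) * lam * ((g⁻¹ : GL (Fin 6) F) : Matrix (Fin 6) (Fin 6) F) ∈ K :=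
      (hg lam).1 hlK
    set G : Matrix (Fin 6) (Fin 6) F := (g : Matrix (Fin 6) (Fin 6) F) with hG
    set G' : Matrix (Fin 6) (Fin 6) F := ((g⁻¹ : GL (Fin 6) F) : Matrix (Fin 6) (Fin 6) F) with hG'
    have hGG' : G * G' = 1 := by rw [hG, hG', ← Units.val_mul, mul_inv_cancel, Units.val_one]
    have hG'G : G' * G = 1 := by rw [hG, hG', ← Units.val_mul, inv_mul_cancel, Units.val_one]
    set mu := G * lam * G' with hmu
    have hmu3 : mu ^ 3 = ω • (1 : Matrix (Fin 6) (Fin 6) F) := by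
      have h1 : mu ^ 3 = G * lam ^ 3 * G' := by
        rw [hmu, pow_succ, pow_two, pow_succ, pow_two]
        calc G * lam * G' * (G * lam * G') * (G * lam * G')
            = G * lam * (G' * G) * lam * (G' * G) * lam * G' := by simp only [mul_assoc]
          _ = G * (lam * lam * lam) * G' := by rw [hG'G]; simp only [mul_one, mul_assoc]
      rw [h1, hl3, mul_smul_comm, mul_one, smul_mul_assoc, hGG']
    have hcomm2 : Commute mu lam' := hK.comm _ hmuK _ hl'K
    have h3 : (mu * lam') ^ 3 = 1 := by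
      rw [hcomm2.mul_pow, hmu3, hl'3, smul_mul_smul_comm, mul_one, ← pow_succ', hω3, one_smul]
    obtain ⟨d, hd3, hd⟩ := cube_root_scalar hK hω (K.mul_mem hmuK hl'K) h3
    refine ⟨d, hd3, ?_⟩
    have h4 : mu = d • lam := by
      calc mu = mu * (lam' * lam) := by rw [hone, mul_one]
        _ = (mu * lam') * lam := (mul_assoc mu lam' lam).symm
        _ = d • lam := by rw [hd, smul_mul_assoc, one_mul]
    change G * lam = d • (lam * G)
    calc G * lam = G * lam * (G' * G) := by rw [hG'G, mul_one]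
      _ = mu * G := by rw [hmu]; simp only [mul_assoc]
      _ = d • (lam * G) := by rw [h4, smul_mul_assoc]

end Cfsg.Agent.Lib.Helper60.SUSmall
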