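import Cfsg.Agent.Lib.Helper13.SUSmall.Defs

set_option autoImplicit false

namespace Cfsg.Agent.Lib.Helper60.SUSmall

open Cfsg Cfsg.Geo Matrix Cfsg.Agent.Lib.Helper5.SUAsch
open scoped MatrixGroups

section GEN
variable {ι : Type} [Fintype ι] [DecidableEq ι] [Nonempty ι] {F : Type*} [Field F] [Fintype F]
  {r : ℕ} {K : Subalgebra F (Matrix ι ι F)}

omit [Fintype F] in
theorem isField_K (hK : IsFieldSubalgebra r K) : IsField K where
  exists_pair_ne := ⟨0, 1, fun h => zero_ne_one (congrArg Subtype.val h)⟩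
  mul_comm := fun a b => Subtype.ext (hK.comm _ a.2 _ b.2)
  mul_inv_cancel := fun {a} ha => by
    obtain ⟨y, hy, hxy⟩ := hK.inv a a.2 (fun h => ha (Subtype.ext h))
    exact ⟨⟨y, hy⟩, Subtype.ext hxy⟩

/-- GEN -/
theorem K_no_zero_div (hK : IsFieldSubalgebra r K) {x y : Matrix ι ι F} (hx : x ∈ K) (hy : y ∈ K)
    (h : x * y = 0) : x = 0 ∨ y = 0 := by
  let _ := (isField_K hK).toField
  have h1 : (⟨x, hx⟩ : K) * ⟨y, hy⟩ = 0 := Subtype.ext h
  rcases mul_eq_zero.mp h1 with h2 | h2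
  · exact Or.inl (congrArg Subtype.val h2)
  · exact Or.inr (congrArg Subtype.val h2)

theorem card_units_K (hK : IsFieldSubalgebra r K) :
    Nat.card (K)ˣ = Fintype.card F ^ r - 1 := by
  let _ := (isField_K hK).toField
  have h1 : Nat.card K = Fintype.card F ^ r := by
    rw [Module.natCard_eq_pow_finrank (K := F), hK.finrank_eq, Nat.card_eq_fintype_card]
  rw [Nat.card_units, h1]

/-- GEN -/
theorem K_exists_prime_order (hK : IsFieldSubalgebra r K) (p : ℕ) (hp : p.Prime)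
    (hd : p ∣ Fintype.card F ^ r - 1) : ∃ x ∈ K, x ^ p = 1 ∧ x ≠ 1 := by
  have : Fact p.Prime := ⟨hp⟩
  rw [← card_units_K hK] at hd
  obtain ⟨x, hx⟩ := exists_prime_orderOf_dvd_card' p hd
  refine ⟨((x : K) : Matrix ι ι F), (x : K).2, ?_, ?_⟩
  · have h1 : x ^ p = 1 := by rw [← hx]; exact pow_orderOf_eq_one x
    have h2 := congrArg (fun u : (K)ˣ => ((u : K) : Matrix ι ι F)) h1
    simpa using h2
  · intro h
    have h1 : x = 1 := Units.ext (Subtype.ext h)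
    rw [h1, orderOf_one] at hx
    exact hp.one_lt.ne hx

/-- GEN -/
theorem K_eq_pow (hK : IsFieldSubalgebra r K) (p : ℕ) (hp : p.Prime) {x y : Matrix ι ι F}
    (hx : x ∈ K) (hy : y ∈ K) (hx1 : x ^ p = 1) (hx2 : x ≠ 1) (hy1 : y ^ p = 1) :
    ∃ j < p, y = x ^ j := by
  let _ := (isField_K hK).toField
  have : Fact p.Prime := ⟨hp⟩
  have : NeZero p := ⟨hp.ne_zero⟩
  have h1 : (⟨x, hx⟩ : K) ^ p = 1 := Subtype.ext hx1
  have h2 : (⟨x, hx⟩ : K) ≠ 1 := fun h => hx2 (congrArg Subtype.val h)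
  have h3 : (⟨y, hy⟩ : K) ^ p = 1 := Subtype.ext hy1
  have h4 : orderOf (⟨x, hx⟩ : K) = p := orderOf_eq_prime h1 h2
  have h5 : IsPrimitiveRoot (⟨x, hx⟩ : K) p := h4 ▸ IsPrimitiveRoot.orderOf _
  obtain ⟨i, hi, hxy⟩ := h5.eq_pow_of_pow_eq_one h3
  exact ⟨i, hi, (congrArg Subtype.val hxy).symm⟩

/-- GEN -/
theorem K_exists_root (hK : IsFieldSubalgebra r K) (m : ℕ) (hm : m ∣ Fintype.card F ^ r - 1)
    {y : Matrix ι ι F} (hy : y ∈ K) (hy1 : y ^ ((Fintype.card F ^ r - 1) / m) = 1) :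
    ∃ x ∈ K, x ^ m = y := by
  let _ := (isField_K hK).toField
  have hcard := card_units_K hK
  set N := Fintype.card F ^ r - 1 with hN
  have hNpos : 0 < N := by rw [← hcard]; exact Nat.card_pos
  obtain ⟨k, hk⟩ := hm
  have hmpos : 0 < m := by
    rcases Nat.eq_zero_or_pos m with h | h
    · rw [h, zero_mul] at hk; omega
    · exact h
  have hkpos : 0 < k := by
    rcases Nat.eq_zero_or_pos k with h | h
    · rw [h, mul_zero] at hk; omega
    · exact h
  have hdiv : N / m = k := by rw [hk]; exact Nat.mul_div_cancel_left k hmpos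
  rw [hdiv] at hy1
  have hy0 : (⟨y, hy⟩ : K) ≠ 0 := by
    intro h
    have h1 : y = 0 := congrArg Subtype.val h
    rw [h1, zero_pow hkpos.ne'] at hy1
    exact zero_ne_one hy1
  obtain ⟨γ, hγ⟩ := IsCyclic.exists_generator (α := (K)ˣ)
  obtain ⟨a, ha⟩ : ∃ a : ℕ, γ ^ a = Units.mk0 (⟨y, hy⟩ : K) hy0 := by
    have := hγ (Units.mk0 (⟨y, hy⟩ : K) hy0)
    rw [← mem_powers_iff_mem_zpowers] at this
    exact this
  have hord : orderOf γ = N := by
    rw [orderOf_eq_card_of_forall_mem_zpowers hγ, hcard]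
  have h1 : γ ^ (a * k) = 1 := by
    rw [pow_mul, ha]
    apply Units.ext
    apply Subtype.ext
    simpa using hy1
  have h2 : N ∣ a * k := by rw [← hord]; exact orderOf_dvd_of_pow_eq_one h1
  have h3 : m ∣ a := by
    rw [hk] at h2
    exact Nat.dvd_of_mul_dvd_mul_right hkpos h2
  obtain ⟨b, rfl⟩ := h3
  refine ⟨(((γ ^ b : (K)ˣ) : K) : Matrix ι ι F), ((γ ^ b : (K)ˣ) : K).2, ?_⟩
  have h4 : (γ ^ b) ^ m = Units.mk0 (⟨y, hy⟩ : K) hy0 := by
    rw [← pow_mul, mul_comm]; exact ha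
  have h5 := congrArg (fun u : (K)ˣ => ((u : K) : Matrix ι ι F)) h4
  simpa using h5

end GEN

end Cfsg.Agent.Lib.Helper60.SUSmall
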