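import Cfsg.Agent.Lib.Helper13.SUSmall.Defs3
import Cfsg.Agent.Lib.Helper5.SUSmall.E4aModel
import Cfsg.Agent.Lib.Helper5.SUAsch.Bridge
import Cfsg.Agent.Lib.Helper5.SUOrder

/-! su_small piece E3aD: explicit data for `L_2(7) < SU_3(3)`. -/

set_option autoImplicit false

namespace Cfsg.Agent.Lib.Helper60.SUSmall

open Cfsg Cfsg.Geo Matrix Cfsg.Agent.Lib.Helper5.SUAsch Cfsg.Agent.Lib.Helper13.SUSmall
open Cfsg.Agent.Lib.Helper5.SUSmall (K9 card_K9)
open scoped MatrixGroups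

namespace E3

abbrev M3K := Matrix (Fin 3) (Fin 3) K9

/-- the square root of `-1` -/
def ii : K9 := ⟨0, 1⟩

def P1 : M3K := !![0, 1 + ii, -1 + ii; 0, 1 + ii, 1 - ii; 1, 0, 0]
def P2 : M3K := !![-1 + ii, -ii, -1; 1 - ii, -ii, -1; 0, 1 + ii, -1 + ii]
def P3 : M3K := !![-1, -1 - ii, -1; -1, -ii, -1 + ii; -1 + ii, -ii, -1]
def P4 : M3K := !![-1, -1, -1 - ii; -1 + ii, ii, ii; -1, -1 - ii, -1]
def P5 : M3K := !![-1 - ii, 1 + ii, 0; ii, ii, 1 - ii; -1, -1, -1 - ii]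
def P6 : M3K := !![0, 0, 1; 1 - ii, 1 - ii, 0; -1 - ii, 1 + ii, 0]
def Gm : M3K := !![0, 0, -ii; 0, -1, 0; ii, 0, 0]
def Sm : M3K := !![-1, 0, 0; 0, -1, 0; 0, 0, 1]

theorem P1_mul : P1 * P1 = P2 := by decide +kernel
theorem P2_mul : P2 * P1 = P3 := by decide +kernel
theorem P3_mul : P3 * P1 = P4 := by decide +kernel
theorem P4_mul : P4 * P1 = P5 := by decide +kernel
theorem P5_mul : P5 * P1 = P6 := by decide +kernel
theorem P6_mul : P6 * P1 = 1 := by decide +kernel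
theorem P1_mul6 : P1 * P6 = 1 := by decide +kernel
theorem pw0 : P1 ^ 0 = 1 := pow_zero _
theorem pw1 : P1 ^ 1 = P1 := pow_one _
theorem pw2 : P1 ^ 2 = P2 := by rw [pow_succ, pw1, P1_mul]
theorem pw3 : P1 ^ 3 = P3 := by rw [pow_succ, pw2, P2_mul]
theorem pw4 : P1 ^ 4 = P4 := by rw [pow_succ, pw3, P3_mul]
theorem pw5 : P1 ^ 5 = P5 := by rw [pow_succ, pw4, P4_mul]
theorem pw6 : P1 ^ 6 = P6 := by rw [pow_succ, pw5, P5_mul]
theorem pw7 : P1 ^ 7 = 1 := by rw [pow_succ, pw6, P6_mul]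

theorem P1_unitary : P1ᵀ * P1.map (· ^ 3) = 1 := by decide +kernel
theorem Gm_unitary : Gmᵀ * Gm.map (· ^ 3) = 1 := by decide +kernel
theorem Sm_unitary : Smᵀ * Sm.map (· ^ 3) = 1 := by decide +kernel
theorem Gm_Gm : Gm * Gm = 1 := by decide +kernel
theorem Sm_Sm : Sm * Sm = 1 := by decide +kernel
theorem P1_ne_one : P1 ≠ 1 := by decide +kernel
theorem tr0 : (1 : M3K).trace ≠ P1.trace := by decide +kernel
theorem tr3 : P3.trace ≠ P1.trace := by decide +kernel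
theorem tr5 : P5.trace ≠ P1.trace := by decide +kernel
theorem tr6 : P6.trace ≠ P1.trace := by decide +kernel
theorem noncomm : Gm * P1 * Gm * P1 ≠ P1 * (Gm * P1 * Gm) := by decide +kernel
theorem Gm_det : Gm.det = 1 := by rw [Matrix.det_apply]; decide +kernel
theorem Sm_det : Sm.det = 1 := by rw [Matrix.det_apply]; decide +kernel

/-- `i`-th coordinate of `M *ᵥ (a,b,c)` -/
def lin (M : M3K) (i : Fin 3) (a b c : K9) : K9 :=
  M i 0 * a + M i 1 * b + M i 2 * c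

/-- `herm (M x, x)` -/
def hfM (M : M3K) (a b c : K9) : K9 :=
  lin M 0 a b c * (a * a * a) + lin M 1 a b c * (b * b * b) + lin M 2 a b c * (c * c * c)

def c3b (a b c : K9) : Bool :=
  decide (a * (a * a * a) + b * (b * b * b) + c * (c * c * c) = 1) &&
  (decide (hfM P1 a b c = 1) || decide (hfM P2 a b c = 1) || decide (hfM P4 a b c = 1))

set_option maxRecDepth 100000 in
theorem c3b_inv : ∀ a b c : K9,
    c3b (lin Gm 0 a b c) (lin Gm 1 a b c) (lin Gm 2 a b c) = c3b a b c := by decide +kernel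

theorem c3b_x : c3b 0 (1 + ii) (1 + ii) = true := by decide +kernel

theorem c3b_sx : c3b (lin Sm 0 0 (1 + ii) (1 + ii)) (lin Sm 1 0 (1 + ii) (1 + ii))
    (lin Sm 2 0 (1 + ii) (1 + ii)) = false := by decide +kernel

theorem mulVec_eq_lin (M : M3K) (x : Fin 3 → K9) (i : Fin 3) :
    (M *ᵥ x) i = lin M i (x 0) (x 1) (x 2) := by
  simp [Matrix.mulVec, dotProduct, Fin.sum_univ_three, lin]

theorem herm_eq_hfM (M : M3K) (x : Fin 3 → K9) :
    hermForm 3 K9 3 (M *ᵥ x) x = hfM M (x 0) (x 1) (x 2) := by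
  simp only [hermForm, Fin.sum_univ_three, mulVec_eq_lin, hfM, pow_succ, pow_zero, one_mul]

theorem herm_self (x : Fin 3 → K9) :
    hermForm 3 K9 3 x x = x 0 * (x 0 * x 0 * x 0) + x 1 * (x 1 * x 1 * x 1)
      + x 2 * (x 2 * x 2 * x 2) := by
  simp only [hermForm, Fin.sum_univ_three, pow_succ, pow_zero, one_mul]

section transfer

variable {F : Type*} [Field F] [Fintype F] (hF : Fintype.card F = 3 ^ 2)

/-- the isomorphism with the model -/
noncomputable def eK (hF : Fintype.card F = 3 ^ 2) : K9 ≃+* F :=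
  FiniteField.ringEquivOfCardEq (by rw [card_K9, hF]; norm_num)

/-- the isomorphism with the model, as a ring homomorphism -/
noncomputable def fK (hF : Fintype.card F = 3 ^ 2) : K9 →+* F := (eK hF : K9 ≃+* F)

theorem fK_injective : Function.Injective (fK hF) := (eK hF).injective

theorem fK_surjective : Function.Surjective (fK hF) := (eK hF).surjective

/-- the transfer of matrices -/
noncomputable def Ph : M3K →+* Matrix (Fin 3) (Fin 3) F := (fK hF).mapMatrix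

theorem Ph_apply (A : M3K) (i j : Fin 3) : Ph hF A i j = fK hF (A i j) := rfl

theorem Ph_injective : Function.Injective (Ph hF) := by
  intro A B h
  refine Matrix.ext fun i j => ?_
  apply fK_injective hF
  rw [← Ph_apply, ← Ph_apply, h]

theorem Ph_trace (A : M3K) : (Ph hF A).trace = fK hF A.trace := by
  simp [Matrix.trace, Ph_apply, map_sum]

theorem Ph_unitary (A : M3K) (h : Aᵀ * A.map (· ^ 3) = 1) :
    (Ph hF A)ᵀ * (Ph hF A).map (· ^ 3) = 1 := by
  have e1 : (Ph hF A)ᵀ = Ph hF Aᵀ := by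
    ext i j; simp [Ph_apply]
  have e2 : (Ph hF A).map (· ^ 3) = Ph hF (A.map (· ^ 3)) := by
    ext i j; simp [Ph_apply]
  rw [e1, e2, ← map_mul, h, map_one]

theorem Ph_det (A : M3K) : (Ph hF A).det = fK hF A.det :=
  ((fK hF).map_det A).symm

theorem Ph_mulVec (A : M3K) (x : Fin 3 → K9) :
    Ph hF A *ᵥ (fun i => fK hF (x i)) = fun i => fK hF ((A *ᵥ x) i) := by
  funext i
  exact (RingHom.map_mulVec (fK hF) A x i).symm

theorem herm_map (x y : Fin 3 → K9) :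
    hermForm 3 F 3 (fun i => fK hF (x i)) (fun i => fK hF (y i))
      = fK hF (hermForm 3 K9 3 x y) := by
  simp only [hermForm, map_sum, map_mul, map_pow]

/-- the unit attached to a pair of inverse matrices -/
noncomputable def mkGL (A B : M3K) (h1 : A * B = 1) (h2 : B * A = 1) : GL (Fin 3) F :=
  ⟨Ph hF A, Ph hF B, by rw [← map_mul, h1, map_one], by rw [← map_mul, h2, map_one]⟩

theorem mkGL_mem_GU (A B : M3K) (h1 : A * B = 1) (h2 : B * A = 1)
    (h : Aᵀ * A.map (· ^ 3) = 1) : mkGL hF A B h1 h2 ∈ GU 3 F 3 := by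
  rw [mem_GU_iff]
  exact (Cfsg.Agent.Lib.Helper5.preserves_hermForm_iff hF _).2 (Ph_unitary hF A h)

theorem mkGL_mem_SUg (A B : M3K) (h1 : A * B = 1) (h2 : B * A = 1)
    (h : Aᵀ * A.map (· ^ 3) = 1) (hd : A.det = 1) : mkGL hF A B h1 h2 ∈ SUg 3 F 3 := by
  rw [mem_SUg_iff]
  refine ⟨(Cfsg.Agent.Lib.Helper5.preserves_hermForm_iff hF _).2 (Ph_unitary hF A h), ?_⟩
  show (Ph hF A).det = 1
  rw [Ph_det, hd, map_one]

noncomputable def lG : GL (Fin 3) F := mkGL hF P1 P6 P1_mul6 P6_mul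

theorem lG_pow (j : ℕ) : ((lG hF ^ j : GL (Fin 3) F) : Matrix (Fin 3) (Fin 3) F)
    = Ph hF (P1 ^ j) := by
  rw [Units.val_pow_eq_pow_val, map_pow]
  rfl

theorem cond3_iff (x : Fin 3 → K9) :
    cond3 (lG hF) (fun i => fK hF (x i)) ↔ c3b (x 0) (x 1) (x 2) = true := by
  have hinj := fK_injective hF
  have key : ∀ (j : ℕ) (M : M3K), P1 ^ j = M →
      (hermForm 3 F 3 (((lG hF ^ j : GL (Fin 3) F) : Matrix (Fin 3) (Fin 3) F) *ᵥ
        (fun i => fK hF (x i))) (fun i => fK hF (x i)) = 1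
        ↔ hfM M (x 0) (x 1) (x 2) = 1) := by
    intro j M hM
    rw [lG_pow, hM, Ph_mulVec, herm_map, herm_eq_hfM, ← map_one (fK hF)]
    exact hinj.eq_iff
  have key0 : hermForm 3 F 3 (fun i => fK hF (x i)) (fun i => fK hF (x i)) = 1
      ↔ x 0 * (x 0 * x 0 * x 0) + x 1 * (x 1 * x 1 * x 1) + x 2 * (x 2 * x 2 * x 2) = 1 := by
    rw [herm_map, herm_self, ← map_one (fK hF)]
    exact hinj.eq_iff
  unfold cond3
  simp only [Finset.mem_insert, Finset.mem_singleton, exists_eq_or_imp, exists_eq_left]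
  rw [key0, key 1 P1 pw1, key 2 P2 pw2, key 4 P4 pw4]
  simp only [c3b, Bool.and_eq_true, Bool.or_eq_true, decide_eq_true_eq]
  tauto

end transfer

end E3

open E3 in
/-- E3aD -/
theorem e3a_data {F : Type*} [Field F] [Fintype F] (hF : Fintype.card F = 3 ^ 2) :
    ∃ l g s : GL (Fin 3) F, l ∈ GU 3 F 3 ∧ l ^ 7 = 1 ∧ l ≠ 1 ∧
      (∀ j ∈ ({0, 3, 5, 6} : Finset ℕ),
        ((l ^ j : GL (Fin 3) F) : Matrix (Fin 3) (Fin 3) F).trace ≠
          (l : Matrix (Fin 3) (Fin 3) F).trace) ∧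
      g ∈ SUg 3 F 3 ∧
      (∀ x, cond3 l ((g : Matrix (Fin 3) (Fin 3) F) *ᵥ x) ↔ cond3 l x) ∧
      g * l * g⁻¹ * l ≠ l * (g * l * g⁻¹) ∧
      s ∈ SUg 3 F 3 ∧ ∃ x, cond3 l x ∧ ¬ cond3 l ((s : Matrix (Fin 3) (Fin 3) F) *ᵥ x) := by
  have hinj := Ph_injective hF
  refine ⟨lG hF, mkGL hF Gm Gm Gm_Gm Gm_Gm, mkGL hF Sm Sm Sm_Sm Sm_Sm,
    mkGL_mem_GU hF _ _ _ _ P1_unitary, ?_, ?_, ?_,
    mkGL_mem_SUg hF _ _ _ _ Gm_unitary Gm_det, ?_, ?_,
    mkGL_mem_SUg hF _ _ _ _ Sm_unitary Sm_det, ?_⟩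
  · apply Units.ext
    rw [lG_pow, pw7, map_one]
    rfl
  · intro h
    have h1 : Ph hF P1 = Ph hF 1 := by
      rw [map_one]
      exact congrArg Units.val h
    exact P1_ne_one (hinj h1)
  · have key : ∀ (j : ℕ) (M : M3K), P1 ^ j = M → M.trace ≠ P1.trace →
        ((lG hF ^ j : GL (Fin 3) F) : Matrix (Fin 3) (Fin 3) F).trace ≠
          (lG hF : Matrix (Fin 3) (Fin 3) F).trace := by
      intro j M hM hne h
      rw [lG_pow, hM, Ph_trace] at h
      have h2 : (lG hF : Matrix (Fin 3) (Fin 3) F).trace = fK hF P1.trace := Ph_trace hF P1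
      rw [h2] at h
      exact hne (fK_injective hF h)
    simp only [Finset.forall_mem_insert, Finset.mem_singleton, forall_eq]
    exact ⟨key 0 1 pw0 tr0, key 3 P3 pw3 tr3, key 5 P5 pw5 tr5, key 6 P6 pw6 tr6⟩
  · intro x
    obtain ⟨a, rfl⟩ : ∃ a : Fin 3 → K9, x = fun i => fK hF (a i) := by
      refine ⟨fun i => (eK hF).symm (x i), ?_⟩
      funext i
      exact ((eK hF).apply_symm_apply (x i)).symm
    show cond3 (lG hF) (Ph hF Gm *ᵥ _) ↔ _
    rw [Ph_mulVec, cond3_iff, cond3_iff]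
    simp only [mulVec_eq_lin]
    rw [c3b_inv]
  · intro h
    have h1 := congrArg Units.val h
    have h2 : Ph hF (Gm * P1 * Gm * P1) = Ph hF (P1 * (Gm * P1 * Gm)) := by
      simp only [map_mul]
      exact h1
    exact noncomm (hinj h2)
  · refine ⟨fun i => fK hF ((![0, 1 + ii, 1 + ii] : Fin 3 → K9) i), ?_, ?_⟩
    · rw [cond3_iff]
      exact c3b_x
    · show ¬ cond3 (lG hF) (Ph hF Sm *ᵥ _)
      rw [Ph_mulVec, cond3_iff]
      simp only [mulVec_eq_lin]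
      have := c3b_sx
      intro h
      rw [show (![0, 1 + ii, 1 + ii] : Fin 3 → K9) 0 = 0 from rfl,
        show (![0, 1 + ii, 1 + ii] : Fin 3 → K9) 1 = 1 + ii from rfl,
        show (![0, 1 + ii, 1 + ii] : Fin 3 → K9) 2 = 1 + ii from rfl, this] at h
      exact Bool.false_ne_true h

end Cfsg.Agent.Lib.Helper60.SUSmall
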