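import Cfsg.Agent.Lib.Helper60.SUSmall.E3aAa
import Cfsg.Agent.Lib.Helper60.SUSmall.E3aD

set_option autoImplicit false

/-! # E3aA: the field-extension subgroup `7:3` of `SU_3(3)` is not maximal -/

namespace Cfsg.Agent.Lib.Helper60.SUSmall

open Cfsg Cfsg.Geo Matrix Cfsg.Agent.Lib.Helper5.SUAsch Cfsg.Agent.Lib.Helper13.SUSmall
open scoped MatrixGroups

variable {F : Type*} [Field F] [Fintype F]

/-- E3aA -/
theorem field3_q3_not_max (hF : Fintype.card F = 3 ^ 2)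
    (K : Subalgebra F (Matrix (Fin 3) (Fin 3) F)) (hK : IsFieldSubalgebra 3 K)
    (hadj : IsAdjointClosedFor (hermForm 3 F 3) K) :
    ¬ IsMaximalIn (SUg 3 F 3) (subalgebraNormalizer K ⊓ SUg 3 F 3) :=
  field3_q3_not_max_aux hF (e3a_data hF) K hK hadj

end Cfsg.Agent.Lib.Helper60.SUSmall
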