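import Cfsg.Agent.Lib.Helper60.SUSmall.GEN
import Cfsg.Agent.Lib.Helper60.X23.Pauli

set_option autoImplicit false

/-! # Adjoint-closed field subalgebras: common lemmas for E5N and E6cL -/

namespace Cfsg.Agent.Lib.Helper60.SUSmall

open Cfsg Cfsg.Geo Matrix Cfsg.Agent.Lib.Helper5.SUAsch Cfsg.Agent.Lib.Helper9.AschU
open scoped MatrixGroups

variable {F : Type*} [Field F] [Fintype F] {n q : ℕ}

theorem adj_unique (hF : Fintype.card F = q ^ 2) {k k' : Matrix (Fin n) (Fin n) F}
    (h : ∀ u v : Fin n → F, hermForm n F q (k *ᵥ u) v = hermForm n F q u (k' *ᵥ v)) :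
    k' = adj q k := by
  have hv : ∀ v : Fin n → F, k' *ᵥ v = adj q k *ᵥ v := by
    intro v
    ext i
    have h1 := (h (Pi.single i 1) v).symm.trans (hermForm_mulVec_left hF k (Pi.single i 1) v)
    rw [Cfsg.Agent.Lib.Helper13.hermForm_single_left, Cfsg.Agent.Lib.Helper13.hermForm_single_left] at h1
    have h2 := congrArg (fun x => x ^ q) h1
    simp only [Cfsg.Agent.Lib.Helper13.pow_q_pow_q hF] at h2
    exact h2
  ext i j
  have := congrFun (hv (Pi.single j 1)) i
  simpa [Matrix.mulVec_single_one] using this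

theorem adj_mem (hF : Fintype.card F = q ^ 2) {K : Subalgebra F (Matrix (Fin n) (Fin n) F)}
    (hadj : IsAdjointClosedFor (hermForm n F q) K) {k : Matrix (Fin n) (Fin n) F} (hk : k ∈ K) :
    adj q k ∈ K := by
  obtain ⟨k', hk', h⟩ := hadj k hk
  rw [← adj_unique hF h]
  exact hk'

theorem adj_pow (hF : Fintype.card F = q ^ 2) (X : Matrix (Fin n) (Fin n) F) (k : ℕ) :
    adj q (X ^ k) = (adj q X) ^ k := by
  induction k with
  | zero => rw [pow_zero, pow_zero, adj_one hF]
  | succ k ih => rw [pow_succ, adj_mul hF, ih, pow_succ']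

omit [Fintype F] in
theorem omega_cube {ω : F} (hω : ω ^ 2 + ω + 1 = 0) : ω ^ 3 = 1 := by
  linear_combination (ω - 1) * hω

theorem cube_root_scalar [NeZero n] {r : ℕ} {K : Subalgebra F (Matrix (Fin n) (Fin n) F)}
    (hK : IsFieldSubalgebra r K) {ω : F} (hω : ω ^ 2 + ω + 1 = 0)
    {x : Matrix (Fin n) (Fin n) F} (hx : x ∈ K) (h3 : x ^ 3 = 1) :
    ∃ c : F, c ^ 3 = 1 ∧ x = c • (1 : Matrix (Fin n) (Fin n) F) := by
  let _ := (isField_K hK).toField
  set X : K := ⟨x, hx⟩ with hX
  set a : K := algebraMap F K ω with ha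
  have ha0 : a ^ 2 + a + 1 = 0 := by
    rw [ha, ← map_pow, ← map_add, ← map_one (algebraMap F K), ← map_add, hω, map_zero]
  have hX3 : X ^ 3 = 1 := Subtype.ext h3
  have hprod : (X - 1) * ((X - a) * (X - a ^ 2)) = 0 := by
    linear_combination hX3 + (-X ^ 2 + a * X - a + 1) * ha0
  have hval : (a : Matrix (Fin n) (Fin n) F) = ω • (1 : Matrix (Fin n) (Fin n) F) := by
    rw [ha, Subalgebra.coe_algebraMap, Algebra.algebraMap_eq_smul_one]
  rcases mul_eq_zero.mp hprod with h | h
  · refine ⟨1, one_pow 3, ?_⟩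
    have h1 : X = 1 := sub_eq_zero.mp h
    have := congrArg Subtype.val h1
    rw [one_smul]; exact this
  · rcases mul_eq_zero.mp h with h | h
    · refine ⟨ω, omega_cube hω, ?_⟩
      have h1 : X = a := sub_eq_zero.mp h
      have := congrArg Subtype.val h1
      rw [← hval]; exact this
    · refine ⟨ω ^ 2, by rw [← pow_mul, mul_comm, pow_mul, omega_cube hω, one_pow], ?_⟩
      have h1 : X = a ^ 2 := sub_eq_zero.mp h
      have h2 : x = (a : Matrix (Fin n) (Fin n) F) ^ 2 := congrArg Subtype.val h1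
      rw [h2, hval, smul_pow, one_pow]

end Cfsg.Agent.Lib.Helper60.SUSmall
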