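import Cfsg.Agent.Lib.Helper60.SUSmall.AdjK
import Cfsg.Agent.Lib.Helper5.GUOrder

set_option autoImplicit false

namespace Cfsg.Agent.Lib.Helper60.SUSmall

open Cfsg Cfsg.Geo Matrix Cfsg.Agent.Lib.Helper5.SUAsch Cfsg.Agent.Lib.Helper9.AschU
open scoped MatrixGroups Pointwise

variable {F : Type*} [Field F] [Fintype F]

theorem f9_three (hF : Fintype.card F = 3 ^ 2) : (3 : F) = 0 := by
  obtain ⟨p, hp⟩ := CharP.exists F
  obtain ⟨n, hpp, hn⟩ := FiniteField.card F p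
  rw [hF] at hn
  have h3 : p = 3 := by
    have h1 : p ∣ 3 ^ 2 := by rw [hn]; exact dvd_pow_self p n.ne_zero
    exact (Nat.prime_dvd_prime_iff_eq hpp Nat.prime_three).mp (hpp.dvd_of_dvd_pow h1)
  subst h3
  exact_mod_cast CharP.cast_eq_zero F 3

theorem exists_i_f9 (hF : Fintype.card F = 3 ^ 2) : ∃ i : F, i ^ 2 + 1 = 0 := by
  have h : IsSquare (-1 : F) := by
    rw [FiniteField.isSquare_neg_one_iff, hF]; norm_num
  obtain ⟨i, hi⟩ := h
  exact ⟨i, by rw [pow_two, ← hi]; ring⟩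

omit [Fintype F] in
theorem adj_zero3 {n : ℕ} : adj 3 (0 : Matrix (Fin n) (Fin n) F) = 0 := by
  ext i j
  simp [adj]

theorem not_selfadjoint_seven (hF : Fintype.card F = 3 ^ 2)
    (K : Subalgebra F (Matrix (Fin 3) (Fin 3) F)) (hK : IsFieldSubalgebra 3 K)
    {lam : Matrix (Fin 3) (Fin 3) F} (hlK : lam ∈ K) (h7 : lam ^ 7 = 1) (h1 : lam ≠ 1)
    (hself : adj 3 lam = lam) : False := by
  obtain ⟨i, hi⟩ := exists_i_f9 hF
  have h3F := f9_three hF
  let _ := (isField_K hK).toField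
  set L : K := ⟨lam, hlK⟩ with hL
  set cp : K := algebraMap F K i with hcp
  set cm : K := algebraMap F K (-i) with hcm
  set c1 : K := algebraMap F K (-1) with hc1
  have ecp : cp ^ 2 + 1 = 0 := by
    rw [hcp, ← map_pow, ← map_one (algebraMap F K), ← map_add, hi, map_zero]
  have ecm : cm = -cp := by rw [hcm, hcp, map_neg]
  have ec1 : c1 = -1 := by rw [hc1, map_neg, map_one]
  have h3K : (3 : K) = 0 := by
    have : (algebraMap F K) 3 = 0 := by rw [h3F, map_zero]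
    rwa [map_ofNat] at this
  have hL7 : L ^ 7 = 1 := Subtype.ext h7
  have hL1 : L ≠ 1 := fun h => h1 (congrArg Subtype.val h)
  set m1 : K := L ^ 3 + c1 * L ^ 2 + cm * L ^ 2 + L + cm * L + c1 with hm1
  set m2 : K := L ^ 3 + c1 * L ^ 2 + cp * L ^ 2 + L + cp * L + c1 with hm2
  have hval : ∀ c : F, ((algebraMap F K c : K) : Matrix (Fin 3) (Fin 3) F) =
      c • (1 : Matrix (Fin 3) (Fin 3) F) := by
    intro c
    rw [Subalgebra.coe_algebraMap, Algebra.algebraMap_eq_smul_one]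
  have hM1 : (m1 : Matrix (Fin 3) (Fin 3) F) =
      lam ^ 3 + (-1 : F) • lam ^ 2 + (-i) • lam ^ 2 + lam + (-i) • lam + (-1 : F) • 1 := by
    rw [hm1, hcm, hc1]
    simp only [Subalgebra.coe_add, Subalgebra.coe_mul, Subalgebra.coe_pow, hval,
      smul_mul_assoc, one_mul]
    rfl
  have hM2 : (m2 : Matrix (Fin 3) (Fin 3) F) =
      lam ^ 3 + (-1 : F) • lam ^ 2 + i • lam ^ 2 + lam + i • lam + (-1 : F) • 1 := by
    rw [hm2, hcp, hc1]
    simp only [Subalgebra.coe_add, Subalgebra.coe_mul, Subalgebra.coe_pow, hval,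
      smul_mul_assoc, one_mul]
    rfl
  have hi3 : (-i) ^ 3 = i := by linear_combination (-i) * hi
  have hone3 : (-1 : F) ^ 3 = -1 := by ring
  have hadj12 : adj 3 (m1 : Matrix (Fin 3) (Fin 3) F) = (m2 : Matrix (Fin 3) (Fin 3) F) := by
    rw [hM1, hM2]
    simp only [adj_add hF, adj_smul, adj_pow hF, adj_one hF, hself, hi3, hone3]
  have hprod : m1 * m2 = 1 + L + L ^ 2 + L ^ 3 + L ^ 4 + L ^ 5 + L ^ 6 := by
    rw [hm1, hm2, ecm, ec1]
    linear_combination (-L ^ 2 - 2 * L ^ 3 - L ^ 4) * ecp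
      + (-L + L ^ 2 - L ^ 3 + L ^ 4 - L ^ 5) * h3K
  have hzero : (L - 1) * (m1 * m2) = 0 := by
    rw [hprod]; linear_combination hL7
  have h12 : m1 = 0 ∨ m2 = 0 := by
    rcases mul_eq_zero.mp hzero with h | h
    · exact absurd (sub_eq_zero.mp h) hL1
    · exact mul_eq_zero.mp h
  have hboth : m1 = 0 ∧ m2 = 0 := by
    rcases h12 with h | h
    · refine ⟨h, Subtype.ext ?_⟩
      rw [← hadj12, h]
      exact adj_zero3
    · refine ⟨Subtype.ext ?_, h⟩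
      have h3 : adj 3 (m2 : Matrix (Fin 3) (Fin 3) F) = (m1 : Matrix (Fin 3) (Fin 3) F) := by
        rw [← hadj12, adj_adj hF]
      rw [← h3, h]
      exact adj_zero3
  have hdiff : cp * (L * (L + 1)) = 0 := by
    have : m1 - m2 = 0 := by rw [hboth.1, hboth.2, sub_zero]
    rw [hm1, hm2, ecm] at this
    linear_combination this + (cp * (L ^ 2 + L)) * h3K
  have hL0 : L ≠ 0 := by
    intro h
    rw [h] at hL7
    norm_num at hL7
  have hcp0 : cp ≠ 0 := by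
    intro h
    rw [h] at ecp
    norm_num at ecp
  have hLm : L = -1 := by
    rcases mul_eq_zero.mp hdiff with h | h
    · exact absurd h hcp0
    · rcases mul_eq_zero.mp h with h | h
      · exact absurd h hL0
      · linear_combination h
  rw [hLm] at hL7
  have : (1 : K) = 0 := by linear_combination h3K + hL7
  exact one_ne_zero this

theorem exists_unitary_seven (hF : Fintype.card F = 3 ^ 2)
    (K : Subalgebra F (Matrix (Fin 3) (Fin 3) F)) (hK : IsFieldSubalgebra 3 K)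
    (hadj : IsAdjointClosedFor (hermForm 3 F 3) K) :
    ∃ lam : Matrix (Fin 3) (Fin 3) F, lam ∈ K ∧ lam ^ 7 = 1 ∧ lam ≠ 1 ∧ adj 3 lam * lam = 1 := by
  have hN : Fintype.card F ^ 3 - 1 = 728 := by rw [hF]; norm_num
  obtain ⟨lam, hlK, h7, h1⟩ := K_exists_prime_order hK 7 (by norm_num) (by rw [hN]; norm_num)
  refine ⟨lam, hlK, h7, h1, ?_⟩
  have hl'K : adj 3 lam ∈ K := adj_mem hF hadj hlK
  have hl'7 : (adj 3 lam) ^ 7 = 1 := by rw [← adj_pow hF, h7, adj_one hF]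
  obtain ⟨a, ha, hla⟩ := K_eq_pow hK 7 (by norm_num) hlK hl'K h7 h1 hl'7
  have haa : lam ^ (a * a) = lam ^ 1 := by
    rw [pow_one, pow_mul, ← hla, ← adj_pow hF, ← hla, adj_adj hF]
  let _ := (isField_K hK).toField
  have hL7 : (⟨lam, hlK⟩ : K) ^ 7 = 1 := Subtype.ext h7
  have hL1 : (⟨lam, hlK⟩ : K) ≠ 1 := fun h => h1 (congrArg Subtype.val h)
  have hord : orderOf (⟨lam, hlK⟩ : K) = 7 :=
    @orderOf_eq_prime _ _ _ 7 ⟨by norm_num⟩ hL7 hL1
  have hprim : IsPrimitiveRoot (⟨lam, hlK⟩ : K) 7 := hord ▸ IsPrimitiveRoot.orderOf _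
  have haa' : (⟨lam, hlK⟩ : K) ^ ((a * a) % 7) = (⟨lam, hlK⟩ : K) ^ 1 := by
    rw [← pow_eq_pow_mod _ hL7]
    exact Subtype.ext haa
  have hmod : (a * a) % 7 = 1 := hprim.pow_inj (Nat.mod_lt _ (by norm_num)) (by norm_num) haa'
  have hcases : a = 1 ∨ a = 6 := by
    interval_cases a <;> simp_all
  rcases hcases with rfl | rfl
  · exfalso
    rw [pow_one] at hla
    exact not_selfadjoint_seven hF K hK hlK h7 h1 hla
  · rw [hla, ← pow_succ, h7]

theorem card_GU_three (hF : Fintype.card F = 3 ^ 2) : Nat.card (GU 3 F 3) = 7 * 3456 := by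
  rw [Cfsg.Agent.Lib.Helper5.card_GU hF 3]
  simp [Finset.prod_range_succ]

theorem conj_of_order_seven (hF : Fintype.card F = 3 ^ 2) (a b : GL (Fin 3) F)
    (ha : a ∈ GU 3 F 3) (hb : b ∈ GU 3 F 3) (ha7 : a ^ 7 = 1) (ha1 : a ≠ 1)
    (hb7 : b ^ 7 = 1) (hb1 : b ≠ 1) : ∃ T ∈ GU 3 F 3, ∃ k : ℕ, T * a * T⁻¹ = b ^ k := by
  have : Fact (Nat.Prime 7) := ⟨by norm_num⟩
  have hfac : (Nat.card (GU 3 F 3)).factorization 7 = 1 := by
    rw [card_GU_three hF, Nat.factorization_mul (by norm_num) (by norm_num)]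
    have h1 : (3456 : ℕ).factorization 7 = 0 :=
      Nat.factorization_eq_zero_of_not_dvd (by norm_num)
    simp [h1, Nat.Prime.factorization_self (by norm_num : Nat.Prime 7)]
  have hcard : ∀ x : GU 3 F 3, x ^ 7 = 1 → x ≠ 1 →
      Nat.card (Subgroup.zpowers x) = 7 ^ (Nat.card (GU 3 F 3)).factorization 7 := by
    intro x hx hx1
    rw [hfac, pow_one, Nat.card_zpowers, orderOf_eq_prime hx hx1]
  set a' : GU 3 F 3 := ⟨a, ha⟩ with ha'
  set b' : GU 3 F 3 := ⟨b, hb⟩ with hb'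
  have ha'7 : a' ^ 7 = 1 := Subtype.ext ha7
  have hb'7 : b' ^ 7 = 1 := Subtype.ext hb7
  have ha'1 : a' ≠ 1 := fun h => ha1 (congrArg Subtype.val h)
  have hb'1 : b' ≠ 1 := fun h => hb1 (congrArg Subtype.val h)
  let P : Sylow 7 (GU 3 F 3) := Sylow.ofCard (Subgroup.zpowers a') (hcard a' ha'7 ha'1)
  let Q : Sylow 7 (GU 3 F 3) := Sylow.ofCard (Subgroup.zpowers b') (hcard b' hb'7 hb'1)
  obtain ⟨g, hg⟩ := MulAction.exists_smul_eq (GU 3 F 3) P Q
  have h1 : MulAut.conj g • a' ∈ MulAut.conj g • (P : Subgroup (GU 3 F 3)) :=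
    Subgroup.smul_mem_pointwise_smul _ _ _ (Subgroup.mem_zpowers a')
  have h2 : ((g • P : Sylow 7 (GU 3 F 3)) : Subgroup (GU 3 F 3)) =
      MulAut.conj g • (P : Subgroup (GU 3 F 3)) := rfl
  rw [← h2, hg] at h1
  have h3 : g * a' * g⁻¹ ∈ Subgroup.zpowers b' := h1
  rw [← mem_powers_iff_mem_zpowers] at h3
  obtain ⟨k, hk⟩ := h3
  refine ⟨g, g.2, k, ?_⟩
  have := congrArg Subtype.val hk
  simpa using this.symm

/-- E3aN -/
theorem e3a_normal (hF : Fintype.card F = 3 ^ 2)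
    (K : Subalgebra F (Matrix (Fin 3) (Fin 3) F)) (hK : IsFieldSubalgebra 3 K)
    (hadj : IsAdjointClosedFor (hermForm 3 F 3) K)
    (l : GL (Fin 3) F) (hl : l ∈ GU 3 F 3) (h7 : l ^ 7 = 1) (h1 : l ≠ 1) :
    ∃ T ∈ GU 3 F 3, ((T * l * T⁻¹ : GL (Fin 3) F) : Matrix (Fin 3) (Fin 3) F) ∈ K := by
  obtain ⟨lam, hlK, hl7, hl1, hu⟩ := exists_unitary_seven hF K hK hadj
  have hu' : lam * adj 3 lam = 1 := mul_eq_one_comm.mp hu
  set b : GL (Fin 3) F := ⟨lam, adj 3 lam, hu', hu⟩ with hb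
  have hbU : b ∈ GU 3 F 3 := by
    rw [mem_GU_iff_adj hF]; exact hu
  have hb7 : b ^ 7 = 1 := Units.ext (by rw [Units.val_pow_eq_pow_val]; exact hl7)
  have hb1 : b ≠ 1 := fun h => hl1 (congrArg Units.val h)
  obtain ⟨T, hT, k, hk⟩ := conj_of_order_seven hF l b hl hbU h7 h1 hb7 hb1
  refine ⟨T, hT, ?_⟩
  rw [hk, Units.val_pow_eq_pow_val]
  exact K.pow_mem hlK k

end Cfsg.Agent.Lib.Helper60.SUSmall
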