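import Cfsg.Agent.Lib.Helper13.SUSmall.Defs3
import Cfsg.Agent.Lib.Helper60.SUSmall.E3aN

set_option autoImplicit false

/-! # E3aA, core: `field3_q3_not_max` from the data of E3aD and E3aN (after helper88's E5A) -/

namespace Cfsg.Agent.Lib.Helper60.SUSmall

open Cfsg Cfsg.Geo Matrix Cfsg.Agent.Lib.Helper5.SUAsch Cfsg.Agent.Lib.Helper13.SUSmall
open scoped MatrixGroups

variable {F : Type*} [Field F]

/-- the stabiliser of the invariant set -/
def M3 (l : GL (Fin 3) F) : Subgroup (GL (Fin 3) F) where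
  carrier := {g | ∀ w, cond3 l ((g : Matrix (Fin 3) (Fin 3) F) *ᵥ w) ↔ cond3 l w}
  mul_mem' {a b} ha hb := by
    intro w
    rw [Units.val_mul, ← Matrix.mulVec_mulVec, ha, hb]
  one_mem' := by intro w; simp
  inv_mem' {a} ha := by
    intro w
    rw [← ha, Matrix.mulVec_mulVec, ← Units.val_mul, mul_inv_cancel, Units.val_one,
      Matrix.one_mulVec]

theorem conj_pow_aux3 {G : Type*} [Group G] (l h : G) (i : ℕ) :
    (h⁻¹ * l * h) ^ i = h⁻¹ * l ^ i * h := by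
  have := conj_pow (a := h⁻¹) (b := l) (i := i)
  rwa [inv_inv] at this

theorem mem_GU3 (h : GL (Fin 3) F) (hh : h ∈ GU 3 F 3) (u v : Fin 3 → F) :
    hermForm 3 F 3 ((h : Matrix (Fin 3) (Fin 3) F) *ᵥ u) ((h : Matrix (Fin 3) (Fin 3) F) *ᵥ v) =
      hermForm 3 F 3 u v := hh u v

/-- an element of `GU` conjugating `l` to `l ^ j`, `j` a square mod 7, preserves the set -/
theorem cond3_of_conj (l h : GL (Fin 3) F) (hl7 : l ^ 7 = 1) (hh : h ∈ GU 3 F 3)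
    {j : ℕ} (hj : j = 1 ∨ j = 2 ∨ j = 4) (hc : h⁻¹ * l * h = l ^ j)
    (x : Fin 3 → F) :
    cond3 l ((h : Matrix (Fin 3) (Fin 3) F) *ᵥ x) ↔ cond3 l x := by
  have hU := mem_GU3 h hh
  obtain ⟨P, hP⟩ : ∃ P : ℕ → F, ∀ n, P n =
      hermForm 3 F 3 (((l ^ n : GL (Fin 3) F) : Matrix (Fin 3) (Fin 3) F) *ᵥ x) x := ⟨_, fun _ => rfl⟩
  have key : ∀ i : ℕ, hermForm 3 F 3 (((l ^ i : GL (Fin 3) F) : Matrix (Fin 3) (Fin 3) F) *ᵥ
      ((h : Matrix (Fin 3) (Fin 3) F) *ᵥ x)) ((h : Matrix (Fin 3) (Fin 3) F) *ᵥ x) =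
      P ((i * j) % 7) := by
    intro i
    have e1 : l ^ i * h = h * l ^ ((i * j) % 7) := by
      rw [← pow_eq_pow_mod _ hl7, mul_comm i j, pow_mul, ← hc, conj_pow_aux3]
      group
    rw [Matrix.mulVec_mulVec, ← Units.val_mul, e1, Units.val_mul, ← Matrix.mulVec_mulVec, hU, hP]
  unfold cond3
  simp only [Finset.mem_insert, Finset.mem_singleton, exists_eq_or_imp, exists_eq_left, key, hU,
    ← hP]
  rcases hj with rfl | rfl | rfl <;> norm_num <;> tauto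

/-- E3aA with the data of E3aD as a hypothesis -/
theorem field3_q3_not_max_aux [Fintype F] (hF : Fintype.card F = 3 ^ 2)
    (hdata : ∃ l g s : GL (Fin 3) F, l ∈ GU 3 F 3 ∧ l ^ 7 = 1 ∧ l ≠ 1 ∧
      (∀ j ∈ ({0, 3, 5, 6} : Finset ℕ),
        ((l ^ j : GL (Fin 3) F) : Matrix (Fin 3) (Fin 3) F).trace ≠
          (l : Matrix (Fin 3) (Fin 3) F).trace) ∧
      g ∈ SUg 3 F 3 ∧
      (∀ x, cond3 l ((g : Matrix (Fin 3) (Fin 3) F) *ᵥ x) ↔ cond3 l x) ∧
      g * l * g⁻¹ * l ≠ l * (g * l * g⁻¹) ∧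
      s ∈ SUg 3 F 3 ∧ ∃ x, cond3 l x ∧ ¬ cond3 l ((s : Matrix (Fin 3) (Fin 3) F) *ᵥ x))
    (K : Subalgebra F (Matrix (Fin 3) (Fin 3) F)) (hK : IsFieldSubalgebra 3 K)
    (hadj : IsAdjointClosedFor (hermForm 3 F 3) K) :
    ¬ IsMaximalIn (SUg 3 F 3) (subalgebraNormalizer K ⊓ SUg 3 F 3) := by
  classical
  rintro ⟨-, hmax⟩
  obtain ⟨l, g, s, hlU, hl7, hl1, hmj, hgSU, hgc, hgnc, hsSU, x, hx, hsx⟩ := hdata
  obtain ⟨T, hTU, hTK⟩ := e3a_normal hF K hK hadj l hlU hl7 hl1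
  have hSLn : (specialLinear (Fin 3) F).Normal := by
    unfold specialLinear; infer_instance
  let M : Subgroup (GL (Fin 3) F) :=
    (M3 l).comap (MulAut.conj T⁻¹).toMonoidHom ⊓ SUg 3 F 3
  have hmem : ∀ g, g ∈ M ↔ (T⁻¹ * g * T ∈ M3 l ∧ g ∈ SUg 3 F 3) := by
    intro g
    simp [M, Subgroup.mem_inf, Subgroup.mem_comap]
  have hconj' : ∀ g, g ∈ SUg 3 F 3 → T * g * T⁻¹ ∈ SUg 3 F 3 := by
    intro g hg
    obtain ⟨hg1, hg2⟩ := Subgroup.mem_inf.mp hg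
    exact Subgroup.mem_inf.mpr ⟨mul_mem (mul_mem hTU hg1) (inv_mem hTU), hSLn.conj_mem g hg2 T⟩
  have hL7 : (T * l * T⁻¹) ^ 7 = 1 := by
    rw [conj_pow, hl7]; group
  have hL1 : T * l * T⁻¹ ≠ 1 := by
    intro h
    apply hl1
    have : l = T⁻¹ * (T * l * T⁻¹) * T := by group
    rw [this, h]; group
  have hle : subalgebraNormalizer K ⊓ SUg 3 F 3 ≤ M := by
    intro y hy
    obtain ⟨hy1, hy2⟩ := Subgroup.mem_inf.mp hy
    rw [hmem]
    refine ⟨?_, hy2⟩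
    have hyU : y ∈ GU 3 F 3 := (Subgroup.mem_inf.mp hy2).1
    have hhU : T⁻¹ * y * T ∈ GU 3 F 3 := mul_mem (mul_mem (inv_mem hTU) hyU) hTU
    have hμK : ((y⁻¹ * (T * l * T⁻¹) * y : GL (Fin 3) F) : Matrix (Fin 3) (Fin 3) F) ∈ K := by
      have := ((inv_mem hy1 : y⁻¹ ∈ subalgebraNormalizer K) _).mp hTK
      rw [inv_inv] at this
      rw [Units.val_mul, Units.val_mul]
      exact this
    have hμ7 : (y⁻¹ * (T * l * T⁻¹) * y) ^ 7 = 1 := by
      rw [conj_pow_aux3, hL7]; group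
    obtain ⟨j, hj7, hj⟩ := K_eq_pow hK 7 (by norm_num) hTK hμK
      (by rw [← Units.val_pow_eq_pow_val, hL7, Units.val_one])
      (by intro h; exact hL1 (Units.ext (by rw [h, Units.val_one])))
      (by rw [← Units.val_pow_eq_pow_val, hμ7, Units.val_one])
    have hj' : y⁻¹ * (T * l * T⁻¹) * y = (T * l * T⁻¹) ^ j :=
      Units.ext (by rw [hj, Units.val_pow_eq_pow_val])
    have hc : (T⁻¹ * y * T)⁻¹ * l * (T⁻¹ * y * T) = l ^ j := by
      have e1 : (T⁻¹ * y * T)⁻¹ * l * (T⁻¹ * y * T) = T⁻¹ * (y⁻¹ * (T * l * T⁻¹) * y) * T := by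
        group
      rw [e1, hj', conj_pow]; group
    have htr : ((l ^ j : GL (Fin 3) F) : Matrix (Fin 3) (Fin 3) F).trace =
        (l : Matrix (Fin 3) (Fin 3) F).trace := by
      rw [← hc, Units.val_mul, Units.val_mul, Matrix.trace_units_conj']
    have hjs : j = 1 ∨ j = 2 ∨ j = 4 := by
      have hn : j ∉ ({0, 3, 5, 6} : Finset ℕ) := fun h => hmj j h htr
      simp only [Finset.mem_insert, Finset.mem_singleton, not_or] at hn
      omega
    intro w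
    exact cond3_of_conj l _ hl7 hhU hjs hc w
  rcases hmax M hle inf_le_right with hM | hM
  · -- the extra element
    have hgM : T * g * T⁻¹ ∈ M := by
      rw [hmem]
      refine ⟨?_, hconj' g hgSU⟩
      have : T⁻¹ * (T * g * T⁻¹) * T = g := by group
      rw [this]
      exact hgc
    rw [hM] at hgM
    have hN := ((Subgroup.mem_inf.mp hgM).1 _).mp hTK
    have hcm := hK.comm _ hN _ hTK
    rw [← Units.val_mul, ← Units.val_mul, ← Units.val_mul, ← Units.val_mul] at hcm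
    have hcm' := Units.ext hcm
    apply hgnc
    have e1 : g * l * g⁻¹ * l =
        T⁻¹ * (T * g * T⁻¹ * (T * l * T⁻¹) * (T * g * T⁻¹)⁻¹ * (T * l * T⁻¹)) * T := by group
    have e2 : l * (g * l * g⁻¹) =
        T⁻¹ * (T * l * T⁻¹ * (T * g * T⁻¹ * (T * l * T⁻¹) * (T * g * T⁻¹)⁻¹)) * T := by group
    rw [e1, e2, hcm']
  · have hsM : T * s * T⁻¹ ∈ M := by
      rw [hM]; exact hconj' s hsSU
    rw [hmem] at hsM
    have : T⁻¹ * (T * s * T⁻¹) * T = s := by group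
    rw [this] at hsM
    exact hsx ((hsM.1 x).mpr hx)

end Cfsg.Agent.Lib.Helper60.SUSmall
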