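import Cfsg.Agent.Lib.Helper60.SUSmall.AdjK
import Cfsg.Agent.Lib.Helper5.GUOrder

set_option autoImplicit false

namespace Cfsg.Agent.Lib.Helper60.SUSmall

open Cfsg Cfsg.Geo Matrix Cfsg.Agent.Lib.Helper5.SUAsch Cfsg.Agent.Lib.Helper9.AschU
open scoped MatrixGroups Pointwise

variable {F : Type*} [Field F] [Fintype F]

theorem exists_omega_f4 (hF : Fintype.card F = 2 ^ 2) : ∃ ω : F, ω ^ 2 + ω + 1 = 0 := by
  obtain ⟨w, hw1, hw3⟩ := Cfsg.Agent.Lib.Helper60.X23.exists_w hF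
  refine ⟨w, ?_⟩
  have h : (w - 1) * (w ^ 2 + w + 1) = 0 := by linear_combination hw3
  rcases mul_eq_zero.mp h with h | h
  · exact absurd (sub_eq_zero.mp h) hw1
  · exact h

omit [Fintype F] in
theorem adj_zero' {n : ℕ} : adj 2 (0 : Matrix (Fin n) (Fin n) F) = 0 := by
  ext i j
  simp [adj]

theorem not_selfadjoint_eleven (hF : Fintype.card F = 2 ^ 2)
    (K : Subalgebra F (Matrix (Fin 5) (Fin 5) F)) (hK : IsFieldSubalgebra 5 K)
    {lam : Matrix (Fin 5) (Fin 5) F} (hlK : lam ∈ K) (h11 : lam ^ 11 = 1) (h1 : lam ≠ 1)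
    (hself : adj 2 lam = lam) : False := by
  obtain ⟨ω, hω⟩ := exists_omega_f4 hF
  have hω3 := omega_cube hω
  have h2F := Cfsg.Agent.Lib.Helper60.X23.f4_two hF
  let _ := (isField_K hK).toField
  set L : K := ⟨lam, hlK⟩ with hL
  set w : K := algebraMap F K ω with hw
  have hw0 : w ^ 2 + w + 1 = 0 := by
    rw [hw, ← map_pow, ← map_add, ← map_one (algebraMap F K), ← map_add, hω, map_zero]
  have h2K : (2 : K) = 0 := by
    have : (algebraMap F K) 2 = 0 := by rw [h2F, map_zero]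
    rwa [map_ofNat] at this
  have hL11 : L ^ 11 = 1 := Subtype.ext h11
  have hL1 : L ≠ 1 := fun h => h1 (congrArg Subtype.val h)
  set m1 : K := L ^ 5 + w ^ 2 * L ^ 4 + L ^ 3 + L ^ 2 + w * L + 1 with hm1
  set m2 : K := L ^ 5 + w * L ^ 4 + L ^ 3 + L ^ 2 + w ^ 2 * L + 1 with hm2
  have hwval : (w : Matrix (Fin 5) (Fin 5) F) = ω • (1 : Matrix (Fin 5) (Fin 5) F) := by
    rw [hw, Subalgebra.coe_algebraMap, Algebra.algebraMap_eq_smul_one]
  have hM1 : (m1 : Matrix (Fin 5) (Fin 5) F) =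
      lam ^ 5 + ω ^ 2 • lam ^ 4 + lam ^ 3 + lam ^ 2 + ω • lam + 1 := by
    rw [hm1]
    simp only [Subalgebra.coe_add, Subalgebra.coe_mul, Subalgebra.coe_pow, Subalgebra.coe_one, hwval,
      smul_pow, one_pow, smul_mul_assoc, one_mul]
    rfl
  have hM2 : (m2 : Matrix (Fin 5) (Fin 5) F) =
      lam ^ 5 + ω • lam ^ 4 + lam ^ 3 + lam ^ 2 + ω ^ 2 • lam + 1 := by
    rw [hm2]
    simp only [Subalgebra.coe_add, Subalgebra.coe_mul, Subalgebra.coe_pow, Subalgebra.coe_one, hwval,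
      smul_pow, one_pow, smul_mul_assoc, one_mul]
    rfl
  have hω4 : (ω ^ 2) ^ 2 = ω := by linear_combination ω * hω3
  have hadj12 : adj 2 (m1 : Matrix (Fin 5) (Fin 5) F) = (m2 : Matrix (Fin 5) (Fin 5) F) := by
    rw [hM1, hM2]
    simp only [adj_add hF, adj_smul, adj_pow hF, adj_one hF, hself, hω4]
  have hprod : m1 * m2 = 1 + L + L ^ 2 + L ^ 3 + L ^ 4 + L ^ 5 + L ^ 6 + L ^ 7 + L ^ 8 + L ^ 9 + L ^ 10 := by
    rw [hm1, hm2]
    linear_combination (L - L ^ 2 + L ^ 3 + 2 * L ^ 4 + L ^ 5 + 2 * L ^ 6 + L ^ 7 - L ^ 8 + L ^ 9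
      + w * (L ^ 2 - L ^ 5 + L ^ 8) + w ^ 2 * L ^ 5) * hw0
      + (-L + L ^ 2 - L ^ 4 + L ^ 5 - L ^ 6 + L ^ 8 - L ^ 9) * h2K
  have hzero : (L - 1) * (m1 * m2) = 0 := by
    rw [hprod]; linear_combination hL11
  have h12 : m1 = 0 ∨ m2 = 0 := by
    rcases mul_eq_zero.mp hzero with h | h
    · exact absurd (sub_eq_zero.mp h) hL1
    · exact mul_eq_zero.mp h
  have hboth : m1 = 0 ∧ m2 = 0 := by
    rcases h12 with h | h
    · refine ⟨h, Subtype.ext ?_⟩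
      rw [← hadj12, h]
      exact adj_zero'
    · refine ⟨Subtype.ext ?_, h⟩
      have h3 : adj 2 (m2 : Matrix (Fin 5) (Fin 5) F) = (m1 : Matrix (Fin 5) (Fin 5) F) := by
        rw [← hadj12, adj_adj hF]
      rw [← h3, h]
      exact adj_zero'
  have hdiff : (w ^ 2 - w) * (L * (L ^ 3 - 1)) = 0 := by
    have : m1 - m2 = 0 := by rw [hboth.1, hboth.2, sub_zero]
    rw [hm1, hm2] at this
    linear_combination this
  have hL0 : L ≠ 0 := by
    intro h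
    rw [h] at hL11
    norm_num at hL11
  have hww : w ^ 2 - w ≠ 0 := by
    intro h
    -- w^2 = w and w^2 + w + 1 = 0 give 2 w + 1 = 0, so 1 = 0
    have : (1 : K) = 0 := by linear_combination hw0 - h - w * h2K
    exact one_ne_zero this
  have hL3 : L ^ 3 = 1 := by
    rcases mul_eq_zero.mp hdiff with h | h
    · exact absurd h hww
    · rcases mul_eq_zero.mp h with h | h
      · exact absurd h hL0
      · exact sub_eq_zero.mp h
  apply hL1
  calc L = L ^ 12 * (L ^ 11)⁻¹ := by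
        rw [hL11, inv_one, mul_one]
        have : L ^ 12 = L ^ 11 * L := by ring
        rw [this, hL11, one_mul]
    _ = 1 := by
        have : L ^ 12 = (L ^ 3) ^ 4 := by ring
        rw [this, hL3, hL11]; simp

theorem exists_unitary_eleven (hF : Fintype.card F = 2 ^ 2)
    (K : Subalgebra F (Matrix (Fin 5) (Fin 5) F)) (hK : IsFieldSubalgebra 5 K)
    (hadj : IsAdjointClosedFor (hermForm 5 F 2) K) :
    ∃ lam : Matrix (Fin 5) (Fin 5) F, lam ∈ K ∧ lam ^ 11 = 1 ∧ lam ≠ 1 ∧ adj 2 lam * lam = 1 := by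
  have hN : Fintype.card F ^ 5 - 1 = 1023 := by rw [hF]; norm_num
  obtain ⟨lam, hlK, h11, h1⟩ := K_exists_prime_order hK 11 (by norm_num) (by rw [hN]; norm_num)
  refine ⟨lam, hlK, h11, h1, ?_⟩
  have hl'K : adj 2 lam ∈ K := adj_mem hF hadj hlK
  have hl'11 : (adj 2 lam) ^ 11 = 1 := by rw [← adj_pow hF, h11, adj_one hF]
  obtain ⟨a, ha, hla⟩ := K_eq_pow hK 11 (by norm_num) hlK hl'K h11 h1 hl'11
  have haa : lam ^ (a * a) = lam ^ 1 := by
    rw [pow_one, pow_mul, ← hla, ← adj_pow hF, ← hla, adj_adj hF]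
  let _ := (isField_K hK).toField
  have hL11 : (⟨lam, hlK⟩ : K) ^ 11 = 1 := Subtype.ext h11
  have hL1 : (⟨lam, hlK⟩ : K) ≠ 1 := fun h => h1 (congrArg Subtype.val h)
  have hord : orderOf (⟨lam, hlK⟩ : K) = 11 :=
    @orderOf_eq_prime _ _ _ 11 ⟨by norm_num⟩ hL11 hL1
  have hprim : IsPrimitiveRoot (⟨lam, hlK⟩ : K) 11 := hord ▸ IsPrimitiveRoot.orderOf _
  have haa' : (⟨lam, hlK⟩ : K) ^ ((a * a) % 11) = (⟨lam, hlK⟩ : K) ^ 1 := by
    rw [← pow_eq_pow_mod _ hL11]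
    exact Subtype.ext haa
  have hmod : (a * a) % 11 = 1 := hprim.pow_inj (Nat.mod_lt _ (by norm_num)) (by norm_num) haa'
  have hcases : a = 1 ∨ a = 10 := by
    interval_cases a <;> simp_all
  rcases hcases with rfl | rfl
  · exfalso
    rw [pow_one] at hla
    exact not_selfadjoint_eleven hF K hK hlK h11 h1 hla
  · rw [hla, ← pow_succ, h11]

theorem card_GU_five (hF : Fintype.card F = 2 ^ 2) : Nat.card (GU 5 F 2) = 11 * 3732480 := by
  rw [Cfsg.Agent.Lib.Helper5.card_GU hF 5]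
  simp [Finset.prod_range_succ]
  decide

theorem conj_of_order_eleven (hF : Fintype.card F = 2 ^ 2) (a b : GL (Fin 5) F)
    (ha : a ∈ GU 5 F 2) (hb : b ∈ GU 5 F 2) (ha11 : a ^ 11 = 1) (ha1 : a ≠ 1)
    (hb11 : b ^ 11 = 1) (hb1 : b ≠ 1) : ∃ T ∈ GU 5 F 2, ∃ k : ℕ, T * a * T⁻¹ = b ^ k := by
  have : Fact (Nat.Prime 11) := ⟨by norm_num⟩
  have hfac : (Nat.card (GU 5 F 2)).factorization 11 = 1 := by
    rw [card_GU_five hF, Nat.factorization_mul (by norm_num) (by norm_num)]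
    have h1 : (3732480 : ℕ).factorization 11 = 0 :=
      Nat.factorization_eq_zero_of_not_dvd (by norm_num)
    simp [h1, Nat.Prime.factorization_self (by norm_num : Nat.Prime 11)]
  have hcard : ∀ x : GU 5 F 2, x ^ 11 = 1 → x ≠ 1 →
      Nat.card (Subgroup.zpowers x) = 11 ^ (Nat.card (GU 5 F 2)).factorization 11 := by
    intro x hx hx1
    rw [hfac, pow_one, Nat.card_zpowers, orderOf_eq_prime hx hx1]
  set a' : GU 5 F 2 := ⟨a, ha⟩ with ha'
  set b' : GU 5 F 2 := ⟨b, hb⟩ with hb'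
  have ha'11 : a' ^ 11 = 1 := Subtype.ext ha11
  have hb'11 : b' ^ 11 = 1 := Subtype.ext hb11
  have ha'1 : a' ≠ 1 := fun h => ha1 (congrArg Subtype.val h)
  have hb'1 : b' ≠ 1 := fun h => hb1 (congrArg Subtype.val h)
  let P : Sylow 11 (GU 5 F 2) := Sylow.ofCard (Subgroup.zpowers a') (hcard a' ha'11 ha'1)
  let Q : Sylow 11 (GU 5 F 2) := Sylow.ofCard (Subgroup.zpowers b') (hcard b' hb'11 hb'1)
  obtain ⟨g, hg⟩ := MulAction.exists_smul_eq (GU 5 F 2) P Q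
  have h1 : MulAut.conj g • a' ∈ MulAut.conj g • (P : Subgroup (GU 5 F 2)) :=
    Subgroup.smul_mem_pointwise_smul _ _ _ (Subgroup.mem_zpowers a')
  have h2 : ((g • P : Sylow 11 (GU 5 F 2)) : Subgroup (GU 5 F 2)) =
      MulAut.conj g • (P : Subgroup (GU 5 F 2)) := rfl
  rw [← h2, hg] at h1
  have h3 : g * a' * g⁻¹ ∈ Subgroup.zpowers b' := h1
  rw [← mem_powers_iff_mem_zpowers] at h3
  obtain ⟨k, hk⟩ := h3
  refine ⟨g, g.2, k, ?_⟩
  have := congrArg Subtype.val hk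
  simpa using this.symm

/-- E5N -/
theorem e5_normal (hF : Fintype.card F = 2 ^ 2)
    (K : Subalgebra F (Matrix (Fin 5) (Fin 5) F)) (hK : IsFieldSubalgebra 5 K)
    (hadj : IsAdjointClosedFor (hermForm 5 F 2) K)
    (l : GL (Fin 5) F) (hl : l ∈ GU 5 F 2) (h11 : l ^ 11 = 1) (h1 : l ≠ 1) :
    ∃ T ∈ GU 5 F 2, ((T * l * T⁻¹ : GL (Fin 5) F) : Matrix (Fin 5) (Fin 5) F) ∈ K := by
  obtain ⟨lam, hlK, hl11, hl1, hu⟩ := exists_unitary_eleven hF K hK hadj
  have hu' : lam * adj 2 lam = 1 := mul_eq_one_comm.mp hu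
  set b : GL (Fin 5) F := ⟨lam, adj 2 lam, hu', hu⟩ with hb
  have hbU : b ∈ GU 5 F 2 := by
    rw [mem_GU_iff_adj hF]; exact hu
  have hb11 : b ^ 11 = 1 := Units.ext (by rw [Units.val_pow_eq_pow_val]; exact hl11)
  have hb1 : b ≠ 1 := fun h => hl1 (congrArg Units.val h)
  obtain ⟨T, hT, k, hk⟩ := conj_of_order_eleven hF l b hl hbU h11 h1 hb11 hb1
  refine ⟨T, hT, ?_⟩
  rw [hk, Units.val_pow_eq_pow_val]
  exact K.pow_mem hlK k

end Cfsg.Agent.Lib.Helper60.SUSmall
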